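import Mathlib
import Cfsg.Prelude.Def_EvenType
import Cfsg.Agent.Lib.Helper14.AutOC
import Cfsg.Agent.Lib.Helper14.EichlerGen
import Cfsg.Agent.Lib.Helper14.Forms
import Cfsg.Agent.Lib.Helper44.Char2Forms

/-!
# 2-rank at least 3 for `PΩ(Q)` in characteristic 2 (dimension at least 7)

Generic: for a non-degenerate quadratic form `Q` on `ι → F`, `F` finite of characteristic 2,
`7 ≤ card ι`, the Eichler transformations `E(u, w)`, `w` in a complement of `F u` in `u^⊥`,
form an elementary abelian 2-subgroup of `Ω(Q)` of order at least `8` meeting the centre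
trivially.
-/

set_option autoImplicit false

namespace Cfsg.Agent.Lib.Helper61.R3

open Matrix Module

section generic

variable {ι : Type} [Fintype ι] [DecidableEq ι] {F : Type*} [Field F] [Fintype F]

/-- `m₂(PΩ(Q)) ≥ 3` in characteristic 2, dimension at least 7. -/
theorem prank_pomega (Q : QuadraticForm F (ι → F))
    (hQ : (QuadraticMap.polarBilin Q).Nondegenerate) [CharP F 2] (hn : 7 ≤ Fintype.card ι) :
    Cfsg.PRankAtLeast 2 3 (Cfsg.POmega F ⇑Q) := by
  classical
  have h2 : (2 : F) = 0 := by exact_mod_cast CharP.cast_eq_zero F 2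
  obtain ⟨E, hE, hE0⟩ := Cfsg.Agent.Lib.Helper14.exists_ts3 Q hQ hn
  obtain ⟨u, huE, hu0⟩ : ∃ u ∈ E, u ≠ 0 := by
    by_contra hcon
    push Not at hcon
    have hbot : E = ⊥ := by
      rw [eq_bot_iff]
      intro x hx
      rw [Submodule.mem_bot]
      exact hcon x hx
    rw [hbot, finrank_bot] at hE
    omega
  have hu : Q u = 0 := hE0 u huE
  obtain ⟨x₀, -, hx₀⟩ := Cfsg.Agent.Lib.Helper14.exists_hyp_partner Q hQ (by omega) hu0
  let φu : (ι → F) →ₗ[F] F := QuadraticMap.polarBilin Q u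
  let φx : (ι → F) →ₗ[F] F := QuadraticMap.polarBilin Q x₀
  have hWdim : 3 ≤ finrank F ↥(LinearMap.ker φu ⊓ LinearMap.ker φx) := by
    have h := Cfsg.Agent.Lib.Helper14.finrank_le_inf_ker_ker φu φx
    rw [Module.finrank_fintype_fun_eq_card] at h
    omega
  let W : Submodule F (ι → F) := LinearMap.ker φu ⊓ LinearMap.ker φx
  have hWu : ∀ w ∈ W, QuadraticMap.polar ⇑Q u w = 0 := fun w hw => LinearMap.mem_ker.mp hw.1
  have hWx : ∀ w ∈ W, QuadraticMap.polar ⇑Q x₀ w = 0 := fun w hw => LinearMap.mem_ker.mp hw.2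
  let f : Multiplicative W → ↥(Cfsg.Omega F ⇑Q) := fun w =>
    ⟨Cfsg.Agent.Lib.Helper14.eichElt Q hQ u ((Multiplicative.toAdd w : W) : ι → F) hu
        (hWu _ (Multiplicative.toAdd w).2),
      Cfsg.Agent.Lib.Helper14.eich_mem_omega Q hQ (by omega) hu
        (hWu _ (Multiplicative.toAdd w).2) _ rfl⟩
  have hf_mat : ∀ a : Multiplicative W,
      ((((f a : ↥(Cfsg.Omega F ⇑Q)) : ↥(Cfsg.isometryGroup F ⇑Q)) :
        Matrix.GeneralLinearGroup ι F) : Matrix ι ι F) =
      Cfsg.Agent.Lib.Helper14.eichMat Q u ((Multiplicative.toAdd a : W) : ι → F) := fun a => rfl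
  have hf_mul : ∀ a b, f (a * b) = f a * f b := by
    intro a b
    apply Subtype.ext
    apply Cfsg.Agent.Lib.Helper14.isom_ext
    rw [Subgroup.coe_mul, Subgroup.coe_mul, Units.val_mul, hf_mat, hf_mat, hf_mat,
      Cfsg.Agent.Lib.Helper14.eichMat_mul Q hu (hWu _ (Multiplicative.toAdd a).2)
        (hWu _ (Multiplicative.toAdd b).2)]
    rfl
  have hf_inj : Function.Injective f := by
    intro a b hab
    have hmat : Cfsg.Agent.Lib.Helper14.eichMat Q u ((Multiplicative.toAdd a : W) : ι → F) =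
        Cfsg.Agent.Lib.Helper14.eichMat Q u ((Multiplicative.toAdd b : W) : ι → F) := by
      rw [← hf_mat, ← hf_mat, hab]
    have hv := congrArg (fun M => M *ᵥ x₀) hmat
    simp only [Cfsg.Agent.Lib.Helper14.eichMat_mulVec] at hv
    set wa : ι → F := ((Multiplicative.toAdd a : W) : ι → F) with hwa
    set wb : ι → F := ((Multiplicative.toAdd b : W) : ι → F) with hwb
    have ha0 : QuadraticMap.polar ⇑Q wa x₀ = 0 := by
      rw [QuadraticMap.polar_comm]; exact hWx _ (Multiplicative.toAdd a).2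
    have hb0 : QuadraticMap.polar ⇑Q wb x₀ = 0 := by
      rw [QuadraticMap.polar_comm]; exact hWx _ (Multiplicative.toAdd b).2
    rw [ha0, hb0, hx₀] at hv
    have e1 : wa - wb = (Q wa - Q wb) • u := by
      linear_combination (norm := module) hv
    have e2 := congrArg (fun z => QuadraticMap.polar ⇑Q x₀ z) e1
    simp only [QuadraticMap.polar_sub_right, QuadraticMap.polar_smul_right] at e2
    rw [hWx _ (Multiplicative.toAdd a).2, hWx _ (Multiplicative.toAdd b).2,
      QuadraticMap.polar_comm (⇑Q) x₀ u, hx₀] at e2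
    have e3 : Q wa - Q wb = 0 := by
      simpa using e2.symm
    rw [e3, zero_smul, sub_eq_zero] at e1
    have : (Multiplicative.toAdd a : W) = Multiplicative.toAdd b := Subtype.ext e1
    exact Multiplicative.toAdd.injective this
  let fh : Multiplicative W →* ↥(Cfsg.Omega F ⇑Q) := MonoidHom.mk' f hf_mul
  have hsq : ∀ c : Multiplicative W, c ^ 2 = 1 := by
    intro c
    apply Multiplicative.toAdd.injective
    rw [toAdd_pow, toAdd_one]
    apply Subtype.ext
    rw [two_nsmul, Submodule.coe_add, Submodule.coe_zero, ← two_smul F, h2, zero_smul]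
  let g : Multiplicative W →* Cfsg.POmega F ⇑Q :=
    (QuotientGroup.mk' (Subgroup.center ↥(Cfsg.Omega F ⇑Q))).comp fh
  have hg_inj : Function.Injective g := by
    intro a b hab
    have h1 : (fh a)⁻¹ * fh b ∈ Subgroup.center ↥(Cfsg.Omega F ⇑Q) := by
      have : ((fh a : ↥(Cfsg.Omega F ⇑Q)) : Cfsg.POmega F ⇑Q) = (fh b : ↥(Cfsg.Omega F ⇑Q)) := hab
      exact QuotientGroup.eq.mp this
    have h3 : (fh a)⁻¹ * fh b = fh (a⁻¹ * b) := by rw [map_mul, map_inv]
    rw [h3] at h1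
    have h4 : Cfsg.Agent.Lib.Helper14.IsPElt 2 (fh (a⁻¹ * b)) := by
      refine ⟨1, ?_⟩
      rw [pow_one, ← map_pow, hsq, map_one]
    have h5 := Cfsg.Agent.Lib.Helper14.omega_center_pElt Q hQ hn 2 (fh (a⁻¹ * b)) h1 h4
    have h6 : a⁻¹ * b = 1 := hf_inj (by rw [show f (a⁻¹ * b) = fh (a⁻¹ * b) from rfl, h5]; exact (map_one fh).symm)
    exact (inv_mul_eq_one.mp h6)
  refine ⟨g.range, ⟨⟨?_⟩⟩, ?_, ?_⟩
  · rintro ⟨x, a, rfl⟩ ⟨y, b, rfl⟩
    apply Subtype.ext
    show g a * g b = g b * g a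
    rw [← map_mul, ← map_mul, mul_comm]
  · rintro x ⟨c, rfl⟩
    rw [← map_pow, hsq, map_one]
  · have hc1 : Nat.card ↥g.range = Nat.card (Multiplicative W) :=
      (Nat.card_congr (MonoidHom.ofInjective hg_inj).toEquiv).symm
    have hc2 : Nat.card (Multiplicative W) = Nat.card F ^ finrank F W := by
      rw [show Nat.card (Multiplicative W) = Nat.card W from rfl]
      exact Module.natCard_eq_pow_finrank
    have hF : 2 ≤ Nat.card F := by
      rw [Nat.card_eq_fintype_card]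
      exact Fintype.one_lt_card
    rw [hc1, hc2]
    calc 2 ^ 3 ≤ 2 ^ finrank F W := Nat.pow_le_pow_right (by norm_num) hWdim
      _ ≤ Nat.card F ^ finrank F W := Nat.pow_le_pow_left hF _

end generic

/-- `m₂(PΩ⁺_{2m}(F)) ≥ 3`, `F` finite of characteristic 2, `m ≥ 4`. -/
theorem prank_pomega_plus (F : Type*) [Field F] [Fintype F] [CharP F 2] (m : ℕ) (hm : 4 ≤ m) :
    Cfsg.PRankAtLeast 2 3 (Cfsg.POmega F (Cfsg.quadFormPlus m F)) := by
  have key : ∀ Qf : (Fin m ⊕ Fin m → F) → F, ⇑(Cfsg.Agent.Lib.Helper14.plusQF m F) = Qf →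
      Cfsg.PRankAtLeast 2 3 (Cfsg.POmega F Qf) := by
    intro Qf h
    subst h
    apply prank_pomega _ (Cfsg.Agent.Lib.Helper14.plusQF_nondegenerate m F)
    simp only [Fintype.card_sum, Fintype.card_fin]
    omega
  exact key _ (Cfsg.Agent.Lib.Helper14.plusQF_coe m F)

/-- `m₂(PΩ⁻_{2k+2}(F)) ≥ 3`, `F` finite of characteristic 2, `k ≥ 3`. -/
theorem prank_pomega_minus (F : Type*) [Field F] [Fintype F] [CharP F 2] (k : ℕ) (hk : 3 ≤ k)
    (a b : F) (hab : ∀ z₁ z₂ : F, z₁ ^ 2 + a * z₁ * z₂ + b * z₂ ^ 2 = 0 → z₁ = 0 ∧ z₂ = 0) :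
    Cfsg.PRankAtLeast 2 3 (Cfsg.POmega F (Cfsg.quadFormMinus k F a b)) := by
  have key : ∀ Qf : ((Fin k ⊕ Fin k) ⊕ Fin 2 → F) → F,
      ⇑(Cfsg.Agent.Lib.Helper14.minusQF k F a b) = Qf →
      Cfsg.PRankAtLeast 2 3 (Cfsg.POmega F Qf) := by
    intro Qf h
    subst h
    apply prank_pomega _ (Cfsg.Agent.Lib.Helper44.minusQF_nondegenerate_all k F a b hab)
    simp only [Fintype.card_sum, Fintype.card_fin]
    omega
  exact key _ (Cfsg.Agent.Lib.Helper14.minusQF_coe k F a b)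

end Cfsg.Agent.Lib.Helper61.R3
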