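import Mathlib
import Cfsg.Agent.Lib.Helper17.R3.Defs
import Cfsg.Agent.Lib.Helper61.R3.POmega

/-!
# R3 (S1788): the packages [OPLUS] and [OMINUS]
-/

set_option autoImplicit false

namespace Cfsg.Agent.Lib.Helper61.R3

/-- [OPLUS] `PΩ⁺_{2m}(F)`, `F` of characteristic 2, `m ≥ 4`, has 2-rank at least 3. -/
theorem pkgPOPlus : Cfsg.Agent.Lib.Helper17.R3.PkgPOPlus := by
  intro F _ _ _ m hm
  exact prank_pomega_plus F m hm

/-- [OMINUS] `PΩ⁻_{2m}(F)`, `F` of characteristic 2, `m ≥ 4`, has 2-rank at least 3. -/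
theorem pkgPOMinus : Cfsg.Agent.Lib.Helper17.R3.PkgPOMinus := by
  intro F _ _ _ m a b hm hab
  exact prank_pomega_minus F (m - 1) (by omega) a b hab

end Cfsg.Agent.Lib.Helper61.R3
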